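import Cfsg.Agent.Lib.SporadicB.He.Forms
import Cfsg.Agent.Lib.SporadicB.He.LowerN
import Cfsg.Agent.Lib.SporadicB.He.LowerK
import Cfsg.Agent.S1695

/-! He on 2058 points with the symplectic subgroup of the point stabiliser. -/

set_option autoImplicit false
set_option linter.all false

namespace CfsgLib.SporadicB.He

open MulAction Matrix
open CfsgLib.SporRecognition.CosetCert
open CfsgLib.SporRecognition.Cert.He2058 (certified subW subT subT_spec)

attribute [local irreducible] formL0 pt k0 k1 k2 k3 k4 k5 k6 na nb N0g0 N0g1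

/-- The relators of He. -/
abbrev heRels : Set (FreeGroup Cfsg.Spor.He.Gen) :=
  Cfsg.Spor.coxRelators Cfsg.Spor.He.edges ∪ {r | r ∈ Cfsg.Spor.He.extra}

/-- The tables on 136 points. -/
noncomputable def kTab : Fin 7 → Nat → Nat := ![k0, k1, k2, k3, k4, k5, k6]

theorem kTab_ok (j : Fin 7) (i : Nat) (hi : i < 136) :
    kTab j i < 136 ∧ sel subT j (pt i) = pt (kTab j i) := by
  have h := allBelow_spec restrict_ok i hi
  simp only [restrictStep, Bool.and_eq_true, Nat.blt_eq, Nat.beq_eq] at h
  fin_cases j <;> simp only [kTab] <;> refine ⟨?_, ?_⟩ <;> simp_all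

theorem pt_lt (i : Fin 136) : pt i < 2058 := by
  have h := allBelow_spec restrict_ok i i.2
  simp only [restrictStep, Bool.and_eq_true, Nat.blt_eq, Nat.beq_eq] at h
  simp_all

theorem pt_mono : ∀ a b, a < b → b < 136 → pt a < pt b := by
  have key : ∀ a, a + 1 < 136 → pt a < pt (a + 1) := by
    intro a ha
    have h := allBelow_spec restrict_ok (a + 1) ha
    have hb : Nat.beq (a + 1) 0 = false := rfl
    simp only [restrictStep, hb, cond_false, Bool.and_eq_true, Nat.blt_eq, Nat.beq_eq] at h
    simp_all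
  intro a b hab
  induction b, hab using Nat.le_induction with
  | base => exact key a
  | succ b hb ih => exact fun hN => (ih (by omega)).trans (key b hN)

/-- The listed point. -/
noncomputable def ptF (i : Fin 136) : Fin 2058 := ⟨pt i, pt_lt i⟩

theorem ptF_injective : Function.Injective ptF := by
  intro a b h
  have h' : pt a = pt b := congrArg Fin.val h
  rcases lt_trichotomy (a : Nat) b with hl | he | hl
  · exact absurd h' (pt_mono _ _ hl b.2).ne
  · exact Fin.ext he
  · exact absurd h' (pt_mono _ _ hl a.2).ne'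

/-- A table word applies as the product of the elements. -/
theorem trace_word {G : Type*} [Group G] (ρ : G →* Equiv.Perm (Fin 136)) (g : Fin 7 → G)
    (hg : ∀ j u, ((ρ (g j) u : Fin 136) : Nat) = kTab j u) (w : List (Fin 7)) :
    ∀ (x : G) (f : Nat → Nat), (∀ u : Fin 136, ((ρ x u : Fin 136) : Nat) = f u) →
      ∀ u : Fin 136, ((ρ (w.foldl (fun y j => g j * y) x) u : Fin 136) : Nat) = trace (w.map kTab) (f u) := by
  induction w with
  | nil => exact fun x f hx u => hx u
  | cons j w ih =>
    intro x f hx u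
    rw [List.foldl_cons, ih _ (fun v => kTab j (f v)) ?_ u]
    · rfl
    intro v
    rw [map_mul, Equiv.Perm.mul_apply, hg, hx]

/-- The subgroup of index 2058 has a subgroup of index two isomorphic to Sp(4,4). -/
theorem exists_sp4 : ∃ (F : Type) (_ : Field F) (_ : Fintype F), Fintype.card F = 4 ∧
    ∃ N : Subgroup (wordSubgroup heRels subW), N.index = 2 ∧
      Nonempty (N ≃* Matrix.symplecticGroup (Fin 2) F) := by
  classical
  obtain ⟨hsimp, hcard⟩ : Cfsg.IsHe (PresentedGroup heRels) := Cfsg.Agent.S1695.result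
  have hfin : Finite (PresentedGroup heRels) := Nat.finite_of_card_ne_zero (by rw [hcard]; norm_num)
  let C := certified
  let σ : PresentedGroup heRels →* Equiv.Perm (Fin 2058) := C.hom
  obtain ⟨e, he, he0⟩ := C.exists_equiv
  let W : Subgroup (PresentedGroup heRels) := wordSubgroup heRels subW
  have hW0 : ∀ g : PresentedGroup heRels, σ g 0 = e (g : PresentedGroup heRels ⧸ W) := by
    intro g
    have := he g ((1 : PresentedGroup heRels) : PresentedGroup heRels ⧸ W)
    rw [he0, MulAction.Quotient.smul_coe, smul_eq_mul, mul_one] at this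
    exact this.symm
  have htrans : ∀ p, ∃ g, σ g 0 = p := by
    intro p
    obtain ⟨g, hg⟩ := QuotientGroup.mk_surjective (e.symm p)
    exact ⟨g, by rw [hW0, hg, Equiv.apply_symm_apply]⟩
  have hmemW : ∀ g, σ g 0 = 0 ↔ g ∈ W := by
    intro g
    rw [hW0, ← he0, e.injective.eq_iff, eq_comm, QuotientGroup.eq, inv_one, one_mul]
  have hinj : Function.Injective σ := by
    rw [← MonoidHom.ker_eq_bot_iff]
    refine (hsimp.eq_bot_or_eq_top_of_normal σ.ker inferInstance).resolve_right fun htop => ?_
    obtain ⟨g, hg⟩ := htrans ⟨1, by norm_num⟩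
    have : σ g = 1 := MonoidHom.mem_ker.mp (htop ▸ Subgroup.mem_top g)
    rw [this] at hg
    exact absurd (congrArg Fin.val hg) (by norm_num)
  have hW : Nat.card W = 1958400 := by
    have h1 := W.card_mul_index
    rw [show W.index = 2058 from C.index_eq, hcard] at h1
    omega
  -- the generators of the stabiliser
  have hlen : subW.length = 7 := rfl
  let gen : Fin 7 → W := fun j => ⟨evalW (PresentedGroup.of (rels := heRels)) (subW[(j : Nat)]'(by rw [hlen]; exact j.2)),
    Subgroup.subset_closure (List.mem_map_of_mem (List.getElem_mem _))⟩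
  have hgen : ∀ (j : Fin 7) (u : Fin 2058), ((σ (gen j : PresentedGroup heRels) u : Fin 2058) : Nat) = sel subT j u := by
    intro j u
    show ((C.hom (evalW (PresentedGroup.of (rels := heRels)) _) u : Fin 2058) : Nat) = _
    rw [subT_spec j (by rw [hlen]; exact j.2) u u.2]
    show ((C.hom _ u : Fin 2058) : Nat) = _
    erw [C.hom_evalW, evalW_tabPerm]
  have hclos : ∀ g : W, g ∈ Subgroup.closure (Set.range gen) := by
    intro g
    have h : (g : PresentedGroup heRels) ∈ (Subgroup.closure (Set.range gen)).map W.subtype := by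
      rw [MonoidHom.map_closure]
      refine Subgroup.closure_mono ?_ g.2
      rintro x hx
      obtain ⟨w, hw, rfl⟩ := List.mem_map.mp hx
      obtain ⟨j, hj, rfl⟩ := List.getElem_of_mem hw
      exact ⟨gen ⟨j, hlen ▸ hj⟩, ⟨_, rfl⟩, rfl⟩
    obtain ⟨g', hg', heq⟩ := h
    rwa [← show g' = g from Subtype.ext heq]
  -- restriction to the 136 points
  let R : Subgroup W :=
    { carrier := {g | ∃ π : Equiv.Perm (Fin 136), ∀ i, σ (g : PresentedGroup heRels) (ptF i) = ptF (π i)}
      one_mem' := ⟨1, fun i => by simp⟩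
      mul_mem' := by
        rintro a b ⟨π, hπ⟩ ⟨π', hπ'⟩
        exact ⟨π * π', fun i => by rw [Subgroup.coe_mul, map_mul, Equiv.Perm.mul_apply, hπ', hπ]; rfl⟩
      inv_mem' := by
        rintro a ⟨π, hπ⟩
        refine ⟨π⁻¹, fun i => ?_⟩
        rw [Subgroup.coe_inv, map_inv, Equiv.Perm.inv_eq_iff_eq, hπ]
        simp }
  have hR : ∀ g : W, g ∈ R := by
    intro g
    refine (Subgroup.closure_le R).mpr ?_ (hclos g)
    rintro _ ⟨j, rfl⟩
    let f : Fin 136 → Fin 136 := fun i => ⟨kTab j i, (kTab_ok j i i.2).1⟩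
    have hf : ∀ i, σ (gen j : PresentedGroup heRels) (ptF i) = ptF (f i) := by
      intro i
      apply Fin.ext
      rw [hgen]
      exact (kTab_ok j i i.2).2
    have hfinj : Function.Injective f := by
      intro a b hab
      apply ptF_injective
      apply (σ (gen j : PresentedGroup heRels)).injective
      rw [hf, hf, hab]
    exact ⟨Equiv.ofBijective f (Finite.injective_iff_bijective.mp hfinj), hf⟩
  choose π hπ using hR
  let ρ : W →* Equiv.Perm (Fin 136) :=
    { toFun := π
      map_one' := Equiv.ext fun i => ptF_injective (by rw [← hπ]; simp)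
      map_mul' := fun a b => Equiv.ext fun i => ptF_injective (by
        rw [← hπ, Subgroup.coe_mul, map_mul, Equiv.Perm.mul_apply, hπ, hπ]; rfl) }
  have hρ : ∀ j (u : Fin 136), ((ρ (gen j) u : Fin 136) : Nat) = kTab j u := by
    intro j u
    have h := congrArg Fin.val (hπ (gen j) u)
    rw [hgen] at h
    have h2 := (kTab_ok j u u.2).2
    have h3 : ptF (⟨kTab j u, (kTab_ok j u u.2).1⟩ : Fin 136) = ptF (π (gen j) u) := Fin.ext (h2.symm.trans h)
    exact (congrArg Fin.val (ptF_injective h3)).symm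
  have hks := fun u hu => allBelow_spec k_same u hu
  simp only [Bool.and_eq_true, Nat.beq_eq] at hks
  have hKlow : 1958400 ≤ Nat.card ρ.range :=
    Klower ρ.range
      ⟨_, ⟨gen 0, rfl⟩, fun u => (hρ 0 u).trans (hks u u.2).1.1.1.1.1.1.symm⟩
      ⟨_, ⟨gen 1, rfl⟩, fun u => (hρ 1 u).trans (hks u u.2).1.1.1.1.1.2.symm⟩
      ⟨_, ⟨gen 2, rfl⟩, fun u => (hρ 2 u).trans (hks u u.2).1.1.1.1.2.symm⟩
      ⟨_, ⟨gen 3, rfl⟩, fun u => (hρ 3 u).trans (hks u u.2).1.1.1.2.symm⟩
      ⟨_, ⟨gen 4, rfl⟩, fun u => (hρ 4 u).trans (hks u u.2).1.1.2.symm⟩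
      ⟨_, ⟨gen 5, rfl⟩, fun u => (hρ 5 u).trans (hks u u.2).1.2.symm⟩
      ⟨_, ⟨gen 6, rfl⟩, fun u => (hρ 6 u).trans (hks u u.2).2.symm⟩
  have hρinj : Function.Injective ρ := by
    have hb : Function.Bijective ρ.rangeRestrict := by
      refine (Nat.bijective_iff_surjective_and_card _).mpr ⟨ρ.rangeRestrict_surjective, ?_⟩
      have := Nat.card_le_card_of_surjective _ ρ.rangeRestrict_surjective
      omega
    intro a b h
    exact hb.injective (Subtype.ext h)
  -- the two generators of the symplectic subgroup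
  let a : W := word1.foldl (fun y j => gen j * y) 1
  let b : W := word2.foldl (fun y j => gen j * y) 1
  have hns := fun u hu => allBelow_spec na_same u hu
  simp only [Bool.and_eq_true, Nat.beq_eq] at hns
  have ha : ∀ u : Fin 136, ((ρ a u : Fin 136) : Nat) = na u := fun u => by
    rw [trace_word ρ gen hρ word1 1 id (fun v => by simp) u,
      Nat.eq_of_beq_eq_true (allBelow_spec na_ok u u.2)]
    rfl
  have hb : ∀ u : Fin 136, ((ρ b u : Fin 136) : Nat) = nb u := fun u => by
    rw [trace_word ρ gen hρ word2 1 id (fun v => by simp) u,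
      Nat.eq_of_beq_eq_true (allBelow_spec nb_ok u u.2)]
    rfl
  let N : Subgroup W := Subgroup.closure {a, b}
  have hQlow : 979200 ≤ Nat.card (N.map ρ) :=
    Nlower (N.map ρ)
      ⟨ρ a, ⟨a, Subgroup.subset_closure (Or.inl rfl), rfl⟩, fun u => (ha u).trans (hns u u.2).1.symm⟩
      ⟨ρ b, ⟨b, Subgroup.subset_closure (Or.inr rfl), rfl⟩, fun u => (hb u).trans (hns u u.2).2.symm⟩
  -- matching with symplectic matrices
  let instF : Fintype (GaloisField 2 2) := Fintype.ofFinite _
  have hF : Fintype.card (GaloisField 2 2) = 4 := by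
    rw [← Nat.card_eq_fintype_card, GaloisField.card 2 2 (by norm_num)]
    norm_num
  obtain ⟨ω, hω⟩ : ∃ ω : GaloisField 2 2, ω ^ 2 + ω + 1 = 0 := by
    obtain ⟨ω, h0, h1⟩ : ∃ ω : GaloisField 2 2, ω ≠ 0 ∧ ω ≠ 1 := by
      by_contra h
      push Not at h
      have : (Finset.univ : Finset (GaloisField 2 2)) ⊆ {0, 1} := fun x _ => by
        by_cases hx : x = 0
        · simp [hx]
        · simp [h x hx]
      have := Finset.card_le_card this
      rw [Finset.card_univ, hF] at this
      exact absurd (this.trans (Finset.card_insert_le _ _)) (by simp)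
    have h3 : ω ^ 3 = 1 := by
      have := FiniteField.pow_card_sub_one_eq_one ω h0
      rwa [hF] at this
    refine ⟨ω, ?_⟩
    have : (ω - 1) * (ω ^ 2 + ω + 1) = 0 := by linear_combination h3
    exact (mul_eq_zero.mp this).resolve_left (sub_ne_zero.mpr h1)
  have hchar : CharP (GaloisField 2 2) 2 := inferInstance
  obtain ⟨MA, MB, f, hfinj, hffix, hfA, hfB⟩ := exists_mats (F := GaloisField 2 2) hω hF
  let Sp := Matrix.symplecticGroup (Fin 2) (GaloisField 2 2)
  let Z : Set (Equiv.Perm (Fin 136) × Sp) := {(ρ a, MA), (ρ b, MB)}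
  let D : Subgroup (Equiv.Perm (Fin 136) × Sp) := Subgroup.closure Z
  have hD : ∀ d ∈ D, ∀ i v, f (d.1 i) ((d.2 : Matrix (Fin 2 ⊕ Fin 2) (Fin 2 ⊕ Fin 2) (GaloisField 2 2)) *ᵥ v) = f i v := by
    intro d hd
    induction hd using Subgroup.closure_induction with
    | mem x hx =>
      intro i v
      rcases hx with rfl | rfl
      · have h : na i < 136 := ha i ▸ (ρ a i).2
        rw [show ρ a i = ⟨na i, h⟩ from Fin.ext (ha i)]
        exact hfA i h v
      · have h : nb i < 136 := hb i ▸ (ρ b i).2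
        rw [show ρ b i = ⟨nb i, h⟩ from Fin.ext (hb i)]
        exact hfB i h v
    | one => intro i v; simp
    | mul x y _ _ hx hy =>
      intro i v
      show f (x.1 (y.1 i)) (((x.2 : Matrix _ _ (GaloisField 2 2)) * (y.2 : Matrix _ _ (GaloisField 2 2))) *ᵥ v) = _
      rw [← Matrix.mulVec_mulVec, hx, hy]
    | inv x _ hx =>
      intro i v
      have h := hx (x.1⁻¹ i) ((x.2⁻¹ : Sp).1 *ᵥ v)
      have e1 : ((x.2 : Sp).1) * ((x.2⁻¹ : Sp).1) = 1 := congrArg Subtype.val (mul_inv_cancel x.2)
      rw [Matrix.mulVec_mulVec, e1, Matrix.one_mulVec] at h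
      simpa using h.symm
  let p1 : D →* Equiv.Perm (Fin 136) := (MonoidHom.fst _ _).comp D.subtype
  let p2 : D →* Sp := (MonoidHom.snd _ _).comp D.subtype
  have hp2 : Function.Injective p2 := by
    rw [← MonoidHom.ker_eq_bot_iff, Subgroup.eq_bot_iff_forall]
    rintro ⟨⟨π', m⟩, hd⟩ hk
    have hm : m = 1 := MonoidHom.mem_ker.mp hk
    have hπ1 : π' = 1 := Equiv.ext fun i => hfinj (funext fun v => by
      have := hD _ hd i v
      simpa [hm] using this)
    exact Subtype.ext (Prod.ext hπ1 hm)
  have hp1 : Function.Injective p1 := by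
    rw [← MonoidHom.ker_eq_bot_iff, Subgroup.eq_bot_iff_forall]
    rintro ⟨⟨π', m⟩, hd⟩ hk
    have hπ1 : π' = 1 := MonoidHom.mem_ker.mp hk
    have hm : m = 1 := hffix m fun i v => by
      have := hD _ hd i v
      simpa [hπ1] using this
    exact Subtype.ext (Prod.ext hπ1 hm)
  have hrange1 : p1.range = N.map ρ := by
    rw [MonoidHom.range_comp, Subgroup.range_subtype, MonoidHom.map_closure]
    show _ = (Subgroup.closure {a, b}).map ρ
    rw [MonoidHom.map_closure]
    congr 1
    simp [Z, Set.image_insert_eq]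
  have hSp : Nat.card Sp = 979200 := by
    show Nat.card (Matrix.symplecticGroup (Fin 2) (GaloisField 2 2)) = _
    rw [CfsgLib.ClassicalLinear.card_sp, hF]
    norm_num [Finset.prod_range_succ]
  have hDcard : Nat.card D = Nat.card (N.map ρ) := by
    rw [← hrange1, ← Nat.card_congr (MonoidHom.ofInjective hp1).toEquiv]
  have hDle : Nat.card D ≤ 979200 := hSp ▸ Nat.card_le_card_of_injective p2 hp2
  have hp2b : Function.Bijective p2 :=
    (Nat.bijective_iff_injective_and_card _).mpr ⟨hp2, by omega⟩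
  let eN : N ≃* Sp :=
    ((N.equivMapOfInjective ρ hρinj).trans ((MulEquiv.subgroupCongr hrange1).symm.trans (MonoidHom.ofInjective hp1).symm)).trans
      (MulEquiv.ofBijective p2 hp2b)
  have hNcard : Nat.card N = 979200 := by rw [Nat.card_congr eN.toEquiv, hSp]
  refine ⟨GaloisField 2 2, inferInstance, instF, hF, N, ?_, ⟨eN⟩⟩
  have h1 := N.card_mul_index
  rw [hNcard, hW] at h1
  omega

theorem exists_he_perm : ∃ H : Subgroup (Equiv.Perm (Fin 2058)), Cfsg.IsHe H ∧
    MulAction.IsPretransitive H (Fin 2058) ∧ ∃ (F : Type) (_ : Field F) (_ : Fintype F), Fintype.card F = 4 ∧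
      ∃ N : Subgroup (MulAction.stabilizer H (0 : Fin 2058)), N.index = 2 ∧
        Nonempty (N ≃* Matrix.symplecticGroup (Fin 2) F) := by
  classical
  obtain ⟨hsimp, hcard⟩ : Cfsg.IsHe (PresentedGroup heRels) := Cfsg.Agent.S1695.result
  have hfin : Finite (PresentedGroup heRels) := Nat.finite_of_card_ne_zero (by rw [hcard]; norm_num)
  let C := certified
  let σ : PresentedGroup heRels →* Equiv.Perm (Fin 2058) := C.hom
  obtain ⟨e, he, he0⟩ := C.exists_equiv
  let W : Subgroup (PresentedGroup heRels) := wordSubgroup heRels subW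
  have hW0 : ∀ g : PresentedGroup heRels, σ g 0 = e (g : PresentedGroup heRels ⧸ W) := by
    intro g
    have := he g ((1 : PresentedGroup heRels) : PresentedGroup heRels ⧸ W)
    rw [he0, MulAction.Quotient.smul_coe, smul_eq_mul, mul_one] at this
    exact this.symm
  have htrans : ∀ p, ∃ g, σ g 0 = p := by
    intro p
    obtain ⟨g, hg⟩ := QuotientGroup.mk_surjective (e.symm p)
    exact ⟨g, by rw [hW0, hg, Equiv.apply_symm_apply]⟩
  have hmemW : ∀ g, σ g 0 = 0 ↔ g ∈ W := by
    intro g
    rw [hW0, ← he0, e.injective.eq_iff, eq_comm, QuotientGroup.eq, inv_one, one_mul]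
  have hinj : Function.Injective σ := by
    rw [← MonoidHom.ker_eq_bot_iff]
    refine (hsimp.eq_bot_or_eq_top_of_normal σ.ker inferInstance).resolve_right fun htop => ?_
    obtain ⟨g, hg⟩ := htrans ⟨1, by norm_num⟩
    have : σ g = 1 := MonoidHom.mem_ker.mp (htop ▸ Subgroup.mem_top g)
    rw [this] at hg
    exact absurd (congrArg Fin.val hg) (by norm_num)
  let eH : PresentedGroup heRels ≃* σ.range := MonoidHom.ofInjective hinj
  let P : Subgroup σ.range := stabilizer σ.range (0 : Fin 2058)
  have hWP : W.map eH.toMonoidHom = P := by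
    ext x
    constructor
    · rintro ⟨g, hg, rfl⟩
      exact (hmemW g).mpr hg
    · intro hx
      obtain ⟨g, rfl⟩ := eH.surjective x
      exact ⟨g, (hmemW g).mp hx, rfl⟩
  let eP : W ≃* P := (eH.subgroupMap W).trans (MulEquiv.subgroupCongr hWP)
  obtain ⟨F, instF1, instF2, hF, N, hN, ⟨eN⟩⟩ := exists_sp4
  refine ⟨σ.range, ⟨eH.symm.isSimpleGroup, by rw [← Nat.card_congr eH.toEquiv]; exact hcard⟩, ?_, F,
    instF1, instF2, hF, N.map eP.toMonoidHom, ?_, ?_⟩
  · rw [isPretransitive_iff_base (0 : Fin 2058)]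
    intro p
    obtain ⟨g, hg⟩ := htrans p
    exact ⟨⟨σ g, g, rfl⟩, hg⟩
  · rw [show N.map eP.toMonoidHom = N.map (eP : W →* P) from rfl, Subgroup.index_map_equiv]
    exact hN
  · exact ⟨(eP.subgroupMap N).symm.trans eN⟩

end CfsgLib.SporadicB.He
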