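import Cfsg.Agent.Lib.SporadicB.He.Check
import Cfsg.Agent.Lib.SporadicB.J3.Core
import Cfsg.Agent.Lib.ClassicalLinear.SympCard

/-! The two generators as symplectic matrices over a field with four elements. -/

set_option autoImplicit false
set_option linter.all false

namespace CfsgLib.SporadicB.He

open CfsgLib.SporadicB.J3 (val bit bit_xor omega_sq bit_ext)
open CfsgLib.SporRecognition.CosetCert (allBelow allBelow_spec field)
open Matrix

attribute [local irreducible] formL0 actA actB digA digB sigSrt na nb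

variable {F : Type*} [Field F] [CharP F 2] {ω : F} (hω : ω ^ 2 + ω + 1 = 0)

theorem val_xor (a b : Nat) : val F ω (Nat.xor a b) = val F ω a + val F ω b := by
  show val F ω (a ^^^ b) = _
  simp only [val, Nat.testBit_xor, bit_xor]
  ring

include hω in
theorem val_cmul {a b : Nat} (ha : a < 4) (hb : b < 4) : val F ω (cmul a b) = val F ω a * val F ω b := by
  have h2 : ω ^ 2 = 1 + ω := by rw [pow_two, omega_sq hω, add_comm]
  have ht : (2 : F) = 0 := CharTwo.two_eq_zero
  have v0 : val F ω 0 = 0 := by simp [val, bit]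
  have v1 : val F ω 1 = 1 := by simp [val, bit, show Nat.testBit 1 1 = false from rfl]
  have v2 : val F ω 2 = ω := by simp [val, bit, show Nat.testBit 2 1 = true from rfl]
  have v3 : val F ω 3 = 1 + ω := by simp [val, bit, show Nat.testBit 3 1 = true from rfl]
  interval_cases a <;> interval_cases b <;> simp only [cmul] <;> norm_num [v0, v1, v2, v3] <;> grind

include hω in
theorem val_injOn {a b : Nat} (ha : a < 4) (hb : b < 4) (h : val F ω a = val F ω b) : a = b := by
  have w0 : ω ≠ 0 := by rintro rfl; simp at hω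
  have w1 : ω ≠ 1 := by
    rintro rfl
    rw [one_pow, CharTwo.add_self_eq_zero, zero_add] at hω
    exact one_ne_zero hω
  have w2 : ω ≠ -1 := by rw [CharTwo.neg_eq]; exact w1
  obtain ⟨h1, h2⟩ := bit_ext w0 w2 w1 h
  interval_cases a <;> interval_cases b <;> simp_all (config := {decide := true})

/-- Position of a coordinate. -/
def cpos : Fin 2 ⊕ Fin 2 ≃ Fin 4 := finSumFinEquiv

/-- The vector with a given code. -/
noncomputable def vec4 (F : Type*) [Field F] (ω : F) (x : Fin 256) : Fin 2 ⊕ Fin 2 → F :=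
  fun a => val F ω (vdig x (cpos a))

/-- The matrix with given digits. -/
noncomputable def mat4 (F : Type*) [Field F] (ω : F) (M : Nat → Nat) : Matrix (Fin 2 ⊕ Fin 2) (Fin 2 ⊕ Fin 2) F :=
  Matrix.of fun a b => val F ω (entry M (cpos a) (cpos b))

theorem vdig_lt (x : Nat) (r : Fin 4) : vdig x r < 4 := by
  unfold vdig CfsgLib.SporRecognition.CosetCert.field
  exact Nat.lt_succ_of_le Nat.and_le_right

theorem vdig_inj : ∀ x y : Fin 256, (∀ r : Fin 4, vdig x r = vdig y r) → x = y := by decide +kernel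

include hω in
theorem vec4_injective : Function.Injective (vec4 F ω) := by
  intro x y h
  refine vdig_inj x y fun r => val_injOn hω (vdig_lt _ _) (vdig_lt _ _) ?_
  have := congrFun h (cpos.symm r)
  simpa [vec4] using this

include hω in
theorem vec4_bijective [Fintype F] (hF : Fintype.card F = 4) : Function.Bijective (vec4 F ω) := by
  rw [Fintype.bijective_iff_injective_and_card]
  refine ⟨vec4_injective hω, ?_⟩
  rw [Fintype.card_fun, hF, Fintype.card_fin, Fintype.card_sum, Fintype.card_fin]
  rfl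

include hω in
theorem mat4_mulVec {M : Nat → Nat} (hM : ∀ r c : Fin 4, entry M r c < 4) (x : Fin 256) (a : Fin 2 ⊕ Fin 2) :
    (mat4 F ω M *ᵥ vec4 F ω x) a = val F ω (mvDig M x (cpos a)) := by
  rw [mvDig, val_xor, val_xor, val_xor, val_cmul hω (hM _ _) (vdig_lt _ _), val_cmul hω (hM _ _) (vdig_lt _ _),
    val_cmul hω (hM _ _) (vdig_lt _ _), val_cmul hω (hM _ _) (vdig_lt _ _)]
  show ∑ b, mat4 F ω M a b * vec4 F ω x b = _
  rw [← Equiv.sum_comp cpos.symm, Fin.sum_univ_four]
  simp only [mat4, vec4, Matrix.of_apply, Equiv.apply_symm_apply]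
  ring

include hω in
theorem mat4_symp {M : Nat → Nat} (hM : ∀ r c : Fin 4, entry M r c < 4)
    (hS : ∀ r c : Fin 4, sympCode M r c = if c = r + 2 then 1 else 0) :
    mat4 F ω M ∈ Matrix.symplecticGroup (Fin 2) F := by
  rw [SymplecticGroup.mem_iff]
  ext a b
  have e : (mat4 F ω M * Matrix.J (Fin 2) F * (mat4 F ω M)ᵀ) a b = val F ω (sympCode M (cpos a) (cpos b)) := by
    rw [sympCode, val_xor, val_xor, val_xor, val_cmul hω (hM _ _) (hM _ _), val_cmul hω (hM _ _) (hM _ _),
      val_cmul hω (hM _ _) (hM _ _), val_cmul hω (hM _ _) (hM _ _)]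
    simp [Matrix.mul_apply, Fintype.sum_sum_type, Fin.sum_univ_two, Matrix.J, mat4, cpos, finSumFinEquiv,
      CharTwo.neg_eq]
  rw [e, hS]
  rcases a with a | a <;> rcases b with b | b <;> fin_cases a <;> fin_cases b <;>
    simp [Matrix.J, cpos, finSumFinEquiv, val, bit, CharTwo.neg_eq, show Nat.testBit 1 1 = false from rfl,
      Fin.ext_iff]

include hω in
/-- The two matrices, and their action on the forms. -/
theorem exists_mats [Fintype F] (hF : Fintype.card F = 4) :
    ∃ (MA MB : Matrix.symplecticGroup (Fin 2) F) (f : Fin 136 → (Fin 2 ⊕ Fin 2 → F) → Nat),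
      Function.Injective f ∧
      (∀ m : Matrix.symplecticGroup (Fin 2) F, (∀ i v, f i ((m : Matrix (Fin 2 ⊕ Fin 2) (Fin 2 ⊕ Fin 2) F) *ᵥ v) = f i v) → m = 1) ∧
      (∀ (i : Fin 136) (h : na i < 136) (v : Fin 2 ⊕ Fin 2 → F),
        f ⟨na i, h⟩ ((MA : Matrix (Fin 2 ⊕ Fin 2) (Fin 2 ⊕ Fin 2) F) *ᵥ v) = f i v) ∧
      (∀ (i : Fin 136) (h : nb i < 136) (v : Fin 2 ⊕ Fin 2 → F),
        f ⟨nb i, h⟩ ((MB : Matrix (Fin 2 ⊕ Fin 2) (Fin 2 ⊕ Fin 2) F) *ᵥ v) = f i v) := by
  have hd := digits_lt
  simp only [List.all_eq_true, List.mem_finRange, forall_const, Bool.and_eq_true, Nat.blt_eq] at hd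
  have hs := symp_ok
  simp only [List.all_eq_true, List.mem_finRange, forall_const, Bool.and_eq_true, Nat.beq_eq] at hs
  have hA : ∀ r c, entry digA r c < 4 := fun r c => (hd r c).1
  have hB : ∀ r c, entry digB r c < 4 := fun r c => (hd r c).2
  let e := Equiv.ofBijective _ (vec4_bijective hω hF)
  let f : Fin 136 → (Fin 2 ⊕ Fin 2 → F) → Nat := fun i v => form i (e.symm v : Fin 256)
  have hfe : ∀ (i : Fin 136) (x : Fin 256), f i (vec4 F ω x) = form i x := by
    intro i x
    show form i (e.symm (e x) : Fin 256) = _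
    rw [e.symm_apply_apply]
  have hact := fun x hx => allBelow_spec act_digits x hx
  simp only [Bool.and_eq_true, Nat.blt_eq, List.all_eq_true, List.mem_finRange, forall_const, Nat.beq_eq] at hact
  have mk : ∀ (M act : Nat → Nat), (∀ r c, entry M r c < 4) → ∀ x : Fin 256, ∀ h : act x < 256,
      (∀ r, vdig (act x) r = mvDig M x r) → mat4 F ω M *ᵥ vec4 F ω x = vec4 F ω ⟨act x, h⟩ := by
    intro M act hM x h hr
    funext a
    rw [mat4_mulVec hω hM]
    show _ = val F ω (vdig (act x) (cpos a))
    rw [hr]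
  refine ⟨⟨_, mat4_symp hω hA fun r c => (hs r c).1⟩, ⟨_, mat4_symp hω hB fun r c => (hs r c).2⟩, f, ?_, ?_, ?_, ?_⟩
  · intro i j hij
    have h : ∀ x : Fin 256, form i x = form j x := fun x => by rw [← hfe, ← hfe, hij]
    by_contra hne
    have hd' := allBelow_spec (allBelow_spec forms_distinct i i.2) j j.2
    simp only [Bool.or_eq_true, Nat.beq_eq, Bool.not_eq_true'] at hd'
    refine (Nat.ne_of_beq_eq_false (hd'.resolve_left fun e => hne (Fin.ext e))) ?_
    apply Nat.eq_of_testBit_eq
    intro k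
    by_cases hk : k < 512
    · have hx := congrArg (fun c => Nat.testBit c (k % 2)) (h ⟨k / 2, by omega⟩)
      have key : ∀ L, (field L 2 (k / 2)).testBit (k % 2) = L.testBit k := by
        intro L
        show ((L >>> (2 * (k / 2))) &&& (2 ^ 2 - 1)).testBit (k % 2) = _
        rw [Nat.testBit_and, Nat.testBit_two_pow_sub_one, Nat.testBit_shiftRight, Nat.div_add_mod,
          decide_eq_true (Nat.mod_lt k (by norm_num)), Bool.and_true]
      simpa only [form, key] using hx
    · have hlt : ∀ i, formL0 i < 2 ^ 512 := fun i => by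
        unfold formL0 CfsgLib.SporRecognition.CosetCert.field
        refine lt_of_le_of_lt Nat.and_le_right ?_
        show 1 <<< 512 - 1 < 2 ^ 512
        rw [Nat.shiftLeft_eq]
        omega
      have hp : 2 ^ 512 ≤ 2 ^ k := Nat.pow_le_pow_right (by norm_num) (by omega)
      rw [Nat.testBit_lt_two_pow ((hlt _).trans_le hp), Nat.testBit_lt_two_pow ((hlt _).trans_le hp)]
  · intro m hm
    have hsrt := fun j hj => allBelow_spec sig_ok j hj
    simp only [Bool.and_eq_true, Nat.blt_eq] at hsrt
    have hmono : ∀ a b, a < b → b < 256 → sig (sigSrt a) < sig (sigSrt b) := by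
      intro a b hab
      induction b, hab using Nat.le_induction with
      | base =>
        intro hb
        have := (hsrt (a + 1) hb).2
        rw [show Nat.beq (a + 1) 0 = false from rfl, cond_false, Nat.blt_eq] at this
        exact this
      | succ b hb ih =>
        intro hN
        have := (hsrt (b + 1) hN).2
        rw [show Nat.beq (b + 1) 0 = false from rfl, cond_false, Nat.blt_eq] at this
        exact (ih (by omega)).trans this
    have hinjσ : Function.Injective fun a : Fin 256 => (⟨sigSrt a, (hsrt a a.2).1⟩ : Fin 256) := by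
      intro a b hab
      have e : sig (sigSrt a) = sig (sigSrt b) := by rw [show sigSrt a = sigSrt b from congrArg Fin.val hab]
      rcases lt_trichotomy (a : Nat) b with hl | he | hl
      · exact absurd e (hmono _ _ hl b.2).ne
      · exact Fin.ext he
      · exact absurd e (hmono _ _ hl a.2).ne'
    have hsig : ∀ x y : Fin 256, sig x = sig y → x = y := by
      intro x y hxy
      obtain ⟨a, rfl⟩ := Finite.surjective_of_injective hinjσ x
      obtain ⟨b, rfl⟩ := Finite.surjective_of_injective hinjσ y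
      rcases lt_trichotomy (a : Nat) b with hl | he | hl
      · exact absurd hxy (hmono _ _ hl b.2).ne
      · rw [Fin.ext he]
      · exact absurd hxy (hmono _ _ hl a.2).ne'
    have hfix : ∀ v : Fin 2 ⊕ Fin 2 → F, (m : Matrix (Fin 2 ⊕ Fin 2) (Fin 2 ⊕ Fin 2) F) *ᵥ v = v := by
      intro v
      apply e.symm.injective
      apply hsig
      have k : ∀ i : Fin 136, form i (e.symm ((m : Matrix (Fin 2 ⊕ Fin 2) (Fin 2 ⊕ Fin 2) F) *ᵥ v) : Fin 256) =
          form i (e.symm v : Fin 256) := fun i => hm i v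
      simp only [sig]
      rw [k ⟨0, by norm_num⟩, k ⟨1, by norm_num⟩, k ⟨2, by norm_num⟩, k ⟨3, by norm_num⟩, k ⟨29, by norm_num⟩]
    apply Subtype.ext
    show (m : Matrix (Fin 2 ⊕ Fin 2) (Fin 2 ⊕ Fin 2) F) = 1
    exact Matrix.ext_of_mulVec_single fun i => by rw [hfix, Matrix.one_mulVec]
  all_goals
    intro i h v
    obtain ⟨x, rfl⟩ := (vec4_bijective hω hF).2 v
  · obtain ⟨⟨⟨hx1, -⟩, hx2⟩, -⟩ := hact x x.2
    show f _ (mat4 F ω digA *ᵥ vec4 F ω x) = _
    rw [mk digA actA hA x hx1 hx2, hfe, hfe]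
    have hf := allBelow_spec (allBelow_spec forms_act i i.2) x x.2
    simp only [Bool.and_eq_true, Nat.beq_eq] at hf
    exact hf.1
  · obtain ⟨⟨⟨-, hx1⟩, -⟩, hx2⟩ := hact x x.2
    show f _ (mat4 F ω digB *ᵥ vec4 F ω x) = _
    rw [mk digB actB hB x hx1 hx2, hfe, hfe]
    have hf := allBelow_spec (allBelow_spec forms_act i i.2) x x.2
    simp only [Bool.and_eq_true, Nat.beq_eq] at hf
    exact hf.2

end CfsgLib.SporadicB.He
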